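/-
A group with the order and element-order counts of `M₂₃` has a heptad subgroup.
-/
import Cfsg.Agent.M23Count.LocalBody
import Cfsg.Agent.M23Count.CoreLocal

set_option autoImplicit false

namespace CfsgLib.M23Count

/-- The group has an elementary abelian subgroup of order 16 with normaliser of order 40320. -/
theorem Setup.exists_heptad {G : Type*} [Group G] [Finite G] (h : Setup G) :
    ∃ E : Subgroup G, Heptad E :=
  h.exists_heptad_of_core
    { exists_core := fun ht => h.exists_core ht
      unique := fun _ hE hF => hE.unique hF
      conj := fun hE g => hE.conj g }

end CfsgLib.M23Count
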